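import Cfsg.Agent.H857.KKL.TorChev
import Cfsg.Agent.KFacts.RgdSL
import Cfsg.Agent.H557.ToralTypes
import Cfsg.Agent.H974.ExcE

/-!
S4546, X3: the checks `Good`: simply laced systems (`good_sl`), systems cut out by a lattice (`good_surj`), and the
Levi subsystems (`lev`).
-/

set_option autoImplicit false
set_option linter.unusedSectionVars false

namespace Cfsg.Agent.H857.KKL.TorGood

open CoxeterSystem Cfsg.Agent.ChevalleyStructure.CoxeterGeom Cfsg.Agent.Tits.Roots Cfsg.Agent.Tits.Core
  Cfsg.Agent.Tits.RootComb Cfsg.Agent.Nodes.Comb Cfsg.Agent.Nodes.Reps Cfsg.Agent.Nodes.BNOf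
  Cfsg.Agent.Nodes.RGDLib Cfsg.Agent.Nodes.Bruhat Cfsg.Agent.Nodes.NormalForm Cfsg.Agent.Nodes.OppDec
open Cfsg.Agent.Nodes.Coroot Cfsg.Agent.KFacts.RgdSL
open Cfsg.Agent.H557.LrRho (actW rep_word)
open Cfsg.Agent.H857.KKL.TorSub

/-! ### Coxeter matrices -/

/-- the Coxeter matrix of a Cartan matrix -/
def cm {n : ℕ} (A : Fin n → Fin n → ℤ) : CoxeterMatrix (Fin n) where
  M := fun i j => if i = j then 1 else if A i j * A j i = 0 then 2 else if A i j * A j i = 1 then 3 else
    if A i j * A j i = 2 then 4 else 6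
  isSymm := by
    ext i j
    show (if j = i then 1 else if A j i * A i j = 0 then 2 else if A j i * A i j = 1 then 3 else
      if A j i * A i j = 2 then 4 else 6) = (if i = j then 1 else if A i j * A j i = 0 then 2 else
      if A i j * A j i = 1 then 3 else if A i j * A j i = 2 then 4 else 6)
    rw [mul_comm (A j i)]
    simp only [eq_comm]
  diagonal := fun i => if_pos rfl
  off_diagonal := fun i j hij => by
    show (if i = j then 1 else if A i j * A j i = 0 then 2 else if A i j * A j i = 1 then 3 else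
      if A i j * A j i = 2 then 4 else 6) ≠ 1
    rw [if_neg hij]
    split_ifs <;> omega

/-- the check of a Cartan matrix -/
def Chk {n : ℕ} (A : Fin n → Fin n → ℤ) : Prop :=
  (∀ i, A i i = 2) ∧ ∀ i j, i ≠ j → (A i j = 0 ∧ A j i = 0) ∨ (A i j = -1 ∧ A j i = -1) ∨
    (A i j = -1 ∧ A j i = -2) ∨ (A i j = -2 ∧ A j i = -1)

instance decChk {n : ℕ} (A : Fin n → Fin n → ℤ) : Decidable (Chk A) := by unfold Chk; infer_instance

theorem isCartan_cm {n : ℕ} {A : Fin n → Fin n → ℤ} (h : Chk A) : IsCartan (cm A) A := by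
  refine ⟨h.1, fun i j hij => ?_⟩
  have hM : cm A i j = if A i j * A j i = 0 then 2 else if A i j * A j i = 1 then 3 else
      if A i j * A j i = 2 then 4 else 6 := if_neg hij
  rcases h.2 i j hij with ⟨h1, h2⟩ | ⟨h1, h2⟩ | ⟨h1, h2⟩ | ⟨h1, h2⟩
  · exact Or.inl ⟨by rw [hM, h1, h2]; rfl, h1, h2⟩
  · exact Or.inr (Or.inl ⟨by rw [hM, h1, h2]; rfl, h1, h2⟩)
  · exact Or.inr (Or.inr (Or.inl ⟨by rw [hM, h1, h2]; rfl, Or.inl ⟨h1, h2⟩⟩))
  · exact Or.inr (Or.inr (Or.inl ⟨by rw [hM, h1, h2]; rfl, Or.inr ⟨h1, h2⟩⟩))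

/-- a basis from a Cartan matrix -/
def mk {l l' : ℕ} (A : Fin l' → Fin l' → ℤ) (h : Chk A) (a : Fin l' → Fin l) (ω : Fin l' → List (Fin l)) : Bas l l' :=
  ⟨cm A, A, isCartan_cm h, a, ω⟩

section

variable {l l' : ℕ} {B : Bas l l'} {M : CoxeterMatrix (Fin l)} {W : Type*} [Group W] {cs : CoxeterSystem M W}
  {A : Fin l → Fin l → ℤ} {h : IsCartan M A}

/-- injectivity from an integral adjugate -/
theorem inj_of (hpair : ∀ i j, pairing A (B.a i) (actW A (B.ω i).reverse (B.b A j)) = B.A i j)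
    {m : ℤ} (hm : m ≠ 0) (C : Fin l' → Fin l' → ℤ) (hC : ∀ j k, ∑ i, C j i * B.A i k = if j = k then m else 0)
    (x : Fin l' → ℤ) (hx : B.io A x = 0) : x = 0 := by
  have key : ∀ i, ∑ k, B.A i k * x k = 0 := by
    intro i
    have h1 : ∀ s : Finset (Fin l'), B.p A i (∑ j ∈ s, x j • B.b A j) = ∑ j ∈ s, B.A i j * x j := by
      classical
      intro s
      induction s using Finset.induction_on with
      | empty =>
        rw [Finset.sum_empty, Finset.sum_empty]
        have := p_smul (B := B) (A := A) i 0 0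
        rwa [zero_smul, zero_mul] at this
      | insert j s hj ih =>
        rw [Finset.sum_insert hj, Finset.sum_insert hj, p_add, ih, p_smul, mul_comm]
        congr 1
        exact congrArg (· * x j) (hpair i j)
    rw [← h1]
    have h2 := p_smul (B := B) (A := A) i 0 0
    rw [zero_smul, zero_mul] at h2
    have h3 : B.io A x = ∑ j, x j • B.b A j := rfl
    rw [← h3, hx, h2]
  funext k
  have h1 : ∑ i, C k i * ∑ j, B.A i j * x j = m * x k := by
    have h2 : ∀ i, C k i * ∑ j, B.A i j * x j = ∑ j, C k i * B.A i j * x j := fun i => by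
      rw [Finset.mul_sum]
      exact Finset.sum_congr rfl fun j _ => by ring
    rw [Finset.sum_congr rfl fun i _ => h2 i, Finset.sum_comm]
    have h3 : ∀ j, ∑ i, C k i * B.A i j * x j = (if k = j then m else 0) * x j := fun j => by
      rw [← hC, Finset.sum_mul]
    rw [Finset.sum_congr rfl fun j _ => h3 j, Finset.sum_eq_single k]
    · rw [if_pos rfl]
    · intro j _ hj
      rw [if_neg (Ne.symm hj), zero_mul]
    · intro hk; exact absurd (Finset.mem_univ k) hk
  rw [Finset.sum_eq_zero fun i _ => by rw [key i, mul_zero]] at h1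
  exact (mul_eq_zero.1 h1.symm).resolve_left hm

/-- `Good` for subsystems cut out by a sublattice -/
theorem good_surj (hpair : ∀ i j, pairing A (B.a i) (actW A (B.ω i).reverse (B.b A j)) = B.A i j)
    (hinj : ∀ x, B.io A x = 0 → x = 0) (P : AddSubgroup (Fin l → ℤ)) (hP : ∀ i, B.b A i ∈ P)
    (hs : ∀ v, IsRoot cs h v → v ∈ P → ∃ x, IsRoot B.cs B.cart x ∧ B.io A x = v) : Good B cs h := by
  refine ⟨hpair, hinj, fun x y hx hy _ _ m k _ _ hr => ?_⟩
  have hmem : ∀ x, B.io A x ∈ P := fun x =>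
    AddSubgroup.sum_mem _ fun i _ => P.zsmul_mem (hP i) _
  obtain ⟨z, hz, e⟩ := hs _ hr (P.add_mem (P.zsmul_mem (hmem x) m) (P.zsmul_mem (hmem y) k))
  have e1 : z = m • x + k • y := by
    have h1 : B.io A (z - (m • x + k • y)) = 0 := by
      rw [io_sub, e, io_add, io_smul, io_smul, sub_self]
    exact sub_eq_zero.1 (hinj _ h1)
  rw [← e1]
  exact hz

/-- `Good` for simply laced systems -/
theorem good_sl [Finite W] (hs : SL cs h)
    (hpair : ∀ i j, pairing A (B.a i) (actW A (B.ω i).reverse (B.b A j)) = B.A i j)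
    (hinj : ∀ x, B.io A x = 0 → x = 0) : Good B cs h := by
  have hinj' : ∀ x y, B.io A x = B.io A y → x = y := fun x y e => by
    have h1 : B.io A (x - y) = 0 := by rw [io_sub, e, sub_self]
    exact sub_eq_zero.1 (hinj _ h1)
  -- a preliminary `Good` with trivial closure condition is not available: direct computation
  have hpio : ∀ i x, B.p A i (B.io A x) = pairing B.A i x := by
    intro i x
    have h1 : ∀ s : Finset (Fin l'), B.p A i (∑ j ∈ s, x j • B.b A j) = ∑ j ∈ s, B.A i j * x j := by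
      classical
      intro s
      induction s using Finset.induction_on with
      | empty =>
        rw [Finset.sum_empty, Finset.sum_empty]
        have := p_smul (B := B) (A := A) i 0 0
        rwa [zero_smul, zero_mul] at this
      | insert j s hj ih =>
        rw [Finset.sum_insert hj, Finset.sum_insert hj, p_add, ih, p_smul, mul_comm]
        congr 1
        exact congrArg (· * x j) (hpair i j)
    exact h1 _
  have hrep : ∀ i x, rep cs h (B.s cs i) (B.io A x) = B.io A (rep B.cs B.cart (B.cs.simple i) x) := by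
    intro i x
    rw [rep_s h, rep_simple_eq, io_sub, io_smul, io_sr]
    congr 2
    exact hpio i x
  have hrep' : ∀ w : B.M.Group, ∃ v : W, ∀ x, rep cs h v (B.io A x) = B.io A (rep B.cs B.cart w x) := by
    intro w
    obtain ⟨ω, rfl⟩ := B.cs.wordProd_surjective w
    induction ω with
    | nil => exact ⟨1, fun x => by rw [wordProd_nil, map_one, map_one]; rfl⟩
    | cons i ω ih =>
      obtain ⟨v, hv⟩ := ih
      exact ⟨B.s cs i * v, fun x => by rw [rep_mul_apply, hv, hrep, wordProd_cons, rep_mul_apply]⟩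
  have hroot : ∀ x, IsRoot B.cs B.cart x → IsRoot cs h (B.io A x) := by
    rintro _ ⟨w, i, rfl⟩
    obtain ⟨v, hv⟩ := hrep' w
    rw [← hv, io_sr]
    exact (isRoot_b h i).act v
  have hcpr : ∀ i u, cpr cs h u (B.b A i) = B.p A i u := by
    intro i u
    have h1 : B.b A i = rep cs h (B.w cs i) (sr (B.a i)) := (rep_w h i).symm
    rw [h1, cpr_rep_sr]
    unfold Bas.p
    congr 1
    unfold Bas.w
    rw [← cs.wordProd_reverse, rep_word cs h]
  refine ⟨hpair, hinj, fun x y hx hy hxy hxy' m k hm hk hr => ?_⟩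
  have hx' := hroot x hx
  have hy' := hroot y hy
  obtain ⟨hc, he⟩ := hs.btwn hx' hy' (fun e => hxy (hinj' _ _ e)) (fun e => hxy' (hinj' _ _ (by rw [e, io_neg])))
    (.of_int hr hm hk rfl)
  have e1 : m • x + k • y = x + y := hinj' _ _ (by rw [io_add, io_smul, io_smul, he, io_add])
  rw [e1]
  obtain ⟨w, i, rfl⟩ := hy
  obtain ⟨v, hv⟩ := hrep' w
  set u := rep B.cs B.cart w⁻¹ x with hu
  have hxu : x = rep B.cs B.cart w u := by rw [hu, ← rep_mul_apply, mul_inv_cancel, map_one]; rfl
  have h2 : cpr cs h (B.io A x) (B.io A (rep B.cs B.cart w (sr i))) = pairing B.A i u := by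
    rw [hxu, ← hv, ← hv, cpr_rep cs h v _ (by rw [io_sr]; exact isRoot_b h i), io_sr, hcpr, hpio]
  rw [hc] at h2
  have h3 : IsRoot B.cs B.cart (rep B.cs B.cart (B.cs.simple i) u) := by
    rw [hu]
    exact (hx.act _).act _
  rw [rep_simple_eq, ← h2, neg_one_smul, sub_neg_eq_add] at h3
  have h4 := h3.act w
  rwa [map_add, ← hxu] at h4

end

end Cfsg.Agent.H857.KKL.TorGood
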